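import Mathlib

/-! Linear algebra for Hall--Higman Theorem B. -/

set_option autoImplicit false

namespace Cfsg.Agent.H5.HH

open Module Finset

section Char
variable (K : Type*) {A : Type*} [Field K] [Ring A] [Algebra K A] (p : ℕ) [hp : Fact p.Prime]
  [CharP K p]

include K in
theorem sub_one_pow_char (u : A) (k : ℕ) : (u - 1) ^ p ^ k = u ^ p ^ k - 1 := by
  have h : ((Polynomial.X : Polynomial K) - 1) ^ p ^ k = Polynomial.X ^ p ^ k - 1 := by
    rw [sub_pow_char_pow, one_pow]
  simpa using congrArg (Polynomial.aeval u) h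

include K in
theorem geom_sum_char (u : A) (k : ℕ) : ∑ i ∈ range (p ^ k), u ^ i = (u - 1) ^ (p ^ k - 1) := by
  have h : ∑ i ∈ range (p ^ k), (Polynomial.X : Polynomial K) ^ i
      = (Polynomial.X - 1) ^ (p ^ k - 1) := by
    have h1 : (Polynomial.X : Polynomial K) - 1 ≠ 0 := Polynomial.X_sub_C_ne_zero 1
    apply mul_right_cancel₀ h1
    rw [geom_sum_mul, ← pow_succ, Nat.sub_add_cancel (Nat.one_le_pow _ _ hp.out.pos),
      sub_pow_char_pow, one_pow]
  simpa using congrArg (Polynomial.aeval u) h

end Char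

variable {K W : Type*} [Field K] [AddCommGroup W] [Module K W]

/-- the commutator with `T`. -/
noncomputable def ad (T : End K W) : End K (End K W) :=
  LinearMap.mulLeft K T - LinearMap.mulRight K T

theorem ad_apply (T a : End K W) : ad T a = T * a - a * T := rfl

theorem range_pow_anti (T : End K W) {i j : ℕ} (h : i ≤ j) :
    LinearMap.range (T ^ j) ≤ LinearMap.range (T ^ i) := by
  rintro _ ⟨w, rfl⟩
  obtain ⟨k, rfl⟩ := Nat.exists_eq_add_of_le h
  exact ⟨(T ^ k) w, by rw [pow_add]; rfl⟩

theorem ad_pow_mem {T : End K W} {s : ℕ} (hs : T ^ s = 0) (m : ℕ) (a : End K W) (j : ℕ) (w : W) :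
    ((ad T ^ m) a) ((T ^ j) w) ∈ LinearMap.range (T ^ (m + j + 1 - s)) := by
  induction m generalizing j with
  | zero =>
    by_cases h : s ≤ j
    · rw [pow_eq_zero_of_le h hs]; simp
    · have : 0 + j + 1 - s = 0 := by omega
      rw [this]; simp
  | succ m ih =>
    rw [pow_succ', Module.End.mul_apply, ad_apply, LinearMap.sub_apply]
    refine sub_mem ?_ ?_
    · obtain ⟨u, hu⟩ := ih j
      refine range_pow_anti T (j := m + j + 1 - s + 1) (by omega) ⟨u, ?_⟩
      rw [pow_succ', Module.End.mul_apply, hu]; rfl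
    · have := ih (j + 1)
      rw [pow_succ', Module.End.mul_apply] at this
      have e : m + (j + 1) + 1 - s = m + 1 + j + 1 - s := by omega
      rw [e] at this
      exact this

theorem core [FiniteDimensional K W] {T : End K W} {M r : ℕ} (hT : T ≠ 0)
    (H : ∀ b : End K W, T * b = b * T → ∃ (c : K) (a : End K W), b = c • 1 + (ad T ^ M) a)
    (hr : T ^ r = 0) (hrM : r ≤ M) : finrank K W = M ∧ M ≤ r := by
  classical
  have hex : ∃ s, T ^ s = 0 := ⟨r, hr⟩
  set s := Nat.find hex with hsdef
  have hs : T ^ s = 0 := Nat.find_spec hex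
  have hsr : s ≤ r := Nat.find_min' hex hr
  have hs2 : 2 ≤ s := by
    by_contra h
    exact hT (by simpa using pow_eq_zero_of_le (show s ≤ 1 by omega) hs)
  have hs1 : T ^ (s - 1) ≠ 0 := Nat.find_min hex (by omega)
  obtain ⟨v, hv⟩ : ∃ v, (T ^ (s - 1)) v ≠ 0 := by
    by_contra h
    push Not at h
    exact hs1 (LinearMap.ext h)
  have hvT : ∀ c : K, c • v ∈ LinearMap.range T → c = 0 := by
    rintro c ⟨u, hu⟩
    by_contra hc
    apply hv
    have : c • (T ^ (s - 1)) v = 0 := by
      rw [← map_smul, ← hu, ← Module.End.mul_apply, ← pow_succ, Nat.sub_add_cancel (by omega), hs]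
      rfl
    exact (smul_eq_zero.mp this).resolve_left hc
  have hD : ∀ a w, ((ad T ^ M) a) w ∈ LinearMap.range (T ^ (M + 1 - s)) := fun a w => by
    simpa using ad_pow_mem hs M a 0 w
  have hD1 : ∀ a w, ((ad T ^ M) a) w ∈ LinearMap.range T := fun a w => by
    simpa using range_pow_anti T (show 1 ≤ M + 1 - s by omega) (hD a w)
  have hMs : M ≤ s := by
    obtain ⟨c, a, h⟩ := H T rfl
    have h1 : T v = c • v + ((ad T ^ M) a) v := by
      conv_lhs => rw [h]
      simp
    have hc : c = 0 := hvT c (by
      rw [← sub_eq_iff_eq_add.mpr h1]; exact sub_mem ⟨v, rfl⟩ (hD1 a v))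
    by_contra hlt
    obtain ⟨u, hu⟩ := range_pow_anti T (show 2 ≤ M + 1 - s by omega) (hD a v)
    apply hv
    have e : s - 1 = (s - 2) + 1 := by omega
    rw [e, pow_succ, Module.End.mul_apply, h1, hc, zero_smul, zero_add, ← hu,
      ← Module.End.mul_apply, ← pow_add, Nat.sub_add_cancel hs2, hs]
    rfl
  refine ⟨le_antisymm ?_ ?_, hMs.trans hsr⟩
  · -- `W` is cyclic
    obtain ⟨f, hf⟩ := Module.Projective.exists_dual_eq_one K hv
    set U : Submodule K W := Submodule.span K (Set.range fun i : Fin s => (T ^ (i : ℕ)) v) with hU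
    have hUmem : ∀ i, (T ^ i) v ∈ U := fun i => by
      by_cases h : i < s
      · exact Submodule.subset_span ⟨⟨i, h⟩, rfl⟩
      · rw [pow_eq_zero_of_le (not_lt.mp h) hs]; simp
    have hUT : ∀ u ∈ U, T u ∈ U := by
      intro u hu
      have : U ≤ U.comap T := by
        rw [hU, Submodule.span_le]
        rintro _ ⟨i, rfl⟩
        have := hUmem (i + 1)
        rw [pow_succ', Module.End.mul_apply] at this
        exact this
      exact this hu
    set b : End K W :=
      ∑ j ∈ range s, ((f.comp (T ^ (s - 1 - j))).smulRight ((T ^ j) v) : End K W) with hb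
    have hbw : ∀ w, b w = ∑ j ∈ range s, f ((T ^ (s - 1 - j)) w) • (T ^ j) v := fun w => by
      simp [hb, LinearMap.sum_apply]
    have hcomm : T * b = b * T := by
      ext w
      rw [Module.End.mul_apply, Module.End.mul_apply, hbw, hbw, map_sum]
      obtain ⟨t, ht⟩ : ∃ t, s = t + 1 := ⟨s - 1, by omega⟩
      have hs' : T ^ (t + 1) = 0 := ht ▸ hs
      rw [ht, sum_range_succ, sum_range_succ']
      have e1 : T (f ((T ^ (t + 1 - 1 - t)) w) • (T ^ t) v) = 0 := by
        rw [map_smul, ← Module.End.mul_apply, ← pow_succ', hs']; simp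
      have e2 : f ((T ^ (t + 1 - 1 - 0)) (T w)) • (T ^ 0) v = 0 := by
        rw [← Module.End.mul_apply, ← pow_succ]
        simp [hs']
      rw [e1, e2, add_zero, add_zero]
      refine sum_congr rfl fun j hj => ?_
      have hj' := mem_range.mp hj
      rw [map_smul, ← Module.End.mul_apply T, ← pow_succ', ← Module.End.mul_apply _ T, ← pow_succ]
      congr 4
      omega
    have hbv : b v - v ∈ LinearMap.range T := by
      obtain ⟨t, ht⟩ : ∃ t, s = t + 1 := ⟨s - 1, by omega⟩
      rw [hbw, ht, sum_range_succ']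
      have : f ((T ^ (t + 1 - 1 - 0)) v) = 1 := by rw [← hf, ht]; rfl
      rw [this, pow_zero, one_smul, Module.End.one_apply, add_sub_cancel_right]
      refine Submodule.sum_mem _ fun j _ => Submodule.smul_mem _ _ ⟨(T ^ j) v, ?_⟩
      rw [pow_succ', Module.End.mul_apply]
    obtain ⟨c, a, h⟩ := H b hcomm
    have h1 : ∀ w, b w = c • w + ((ad T ^ M) a) w := fun w => by
      conv_lhs => rw [h]
      simp
    have hc : c - 1 = 0 := hvT _ (by
      have := sub_mem hbv (hD1 a v)
      rw [h1] at this
      convert this using 1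
      rw [sub_smul, one_smul]; abel)
    have hc1 : c = 1 := sub_eq_zero.mp hc
    have key : ∀ k w, w ∈ U ⊔ LinearMap.range (T ^ k) := by
      intro k
      induction k with
      | zero => intro w; exact Submodule.mem_sup_right ⟨w, rfl⟩
      | succ k ih =>
        intro w
        obtain ⟨u, hu⟩ := hD1 a w
        obtain ⟨u1, hu1, _, ⟨u2, rfl⟩, e⟩ := Submodule.mem_sup.mp (ih u)
        have hbU : b w ∈ U := by
          rw [hbw]; exact Submodule.sum_mem _ fun j _ => Submodule.smul_mem _ _ (hUmem j)
        have : w = (b w - T u1) - (T ^ (k + 1)) u2 := by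
          rw [h1, hc1, one_smul, ← hu, ← e, map_add, pow_succ', Module.End.mul_apply]; abel
        rw [this]
        exact sub_mem (Submodule.mem_sup_left (sub_mem hbU (hUT _ hu1)))
          (Submodule.mem_sup_right ⟨u2, rfl⟩)
    have hUtop : U = ⊤ := by
      rw [eq_top_iff]
      intro w _
      simpa [hs] using key s w
    have := finrank_range_le_card (R := K) fun i : Fin s => (T ^ (i : ℕ)) v
    rw [Set.finrank, ← hU, hUtop, finrank_top, Fintype.card_fin] at this
    omega
  · have hn : IsNilpotent T := ⟨s, hs⟩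
    have h1 : T ^ finrank K W = 0 := by
      have := LinearMap.aeval_self_charpoly T
      rwa [hn.charpoly_eq_X_pow_finrank, map_pow, Polynomial.aeval_X] at this
    have : s ≤ finrank K W := Nat.find_min' hex h1
    omega

end Cfsg.Agent.H5.HH
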