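import Cfsg.Agent.H5.HHB1

/-! Hall--Higman Theorem B: the irreducible case. -/

set_option autoImplicit false

namespace Cfsg.Agent.H5.HH

open Module Finset

theorem pow_mem_of_lt {G : Type*} [Group G] {p : ℕ} (hp : p.Prime) (S : Subgroup G) {c : G}
    {k i : ℕ} (hk : c ^ p ^ (k + 1) ∈ S) (hi : c ^ i ∈ S) (h0 : 0 < i) (hlt : i < p ^ (k + 1)) :
    c ^ p ^ k ∈ S := by
  have hg : c ^ Nat.gcd i (p ^ (k + 1)) ∈ S := by
    rw [← zpow_natCast, Nat.gcd_eq_gcd_ab, zpow_add, zpow_mul, zpow_mul, zpow_natCast,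
      zpow_natCast]
    exact mul_mem (zpow_mem hi _) (zpow_mem hk _)
  obtain ⟨j, hj, e⟩ := (Nat.dvd_prime_pow hp).mp (Nat.gcd_dvd_right i (p ^ (k + 1)))
  have hjk : j ≤ k := by
    by_contra h
    have : j = k + 1 := by omega
    have h2 := Nat.le_of_dvd h0 (Nat.gcd_dvd_left i (p ^ (k + 1)))
    rw [e, this] at h2
    omega
  obtain ⟨t, rfl⟩ := Nat.exists_eq_add_of_le hjk
  rw [e] at hg
  rw [pow_add, pow_mul]
  exact pow_mem hg _

variable {K W : Type*} [Field K] [AddCommGroup W] [Module K W]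

variable (K W) in
/-- the scalar operators. -/
def scal : Subgroup (End K W)ˣ := (Units.map (algebraMap K (End K W)).toMonoidHom).range

theorem mem_scal {g : (End K W)ˣ} : g ∈ scal K W ↔ ∃ c : Kˣ, (g : End K W) = (c : K) • 1 := by
  constructor
  · rintro ⟨c, rfl⟩
    exact ⟨c, by simp [Algebra.algebraMap_eq_smul_one]⟩
  · rintro ⟨c, h⟩
    exact ⟨c, Units.ext (by simp [Algebra.algebraMap_eq_smul_one, h])⟩

theorem mem_scal_of [Nontrivial W] {g : (End K W)ˣ} {c : K} (h : (g : End K W) = c • 1) :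
    g ∈ scal K W := by
  have hc : c ≠ 0 := by
    rintro rfl
    exact g.ne_zero (by simpa using h)
  exact mem_scal.mpr ⟨Units.mk0 c hc, h⟩

theorem scal_comm {g : (End K W)ˣ} (h : g ∈ scal K W) (b : End K W) : (g : End K W) * b = b * g := by
  obtain ⟨c, hc⟩ := mem_scal.mp h
  simp [hc]

/-- conjugation on `End`. -/
noncomputable def cj : (End K W)ˣ →* End K (End K W) where
  toFun g := LinearMap.mulLeft K (g : End K W) * LinearMap.mulRight K ((g⁻¹ : (End K W)ˣ) : End K W)
  map_one' := by ext; simp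
  map_mul' g h := by
    apply LinearMap.ext
    intro b
    simp [mul_assoc]

theorem cj_apply (g : (End K W)ˣ) (b : End K W) : cj g b = g * b * (g⁻¹ : (End K W)ˣ) := by
  simp [cj, mul_assoc]

theorem cj_eq_iff {g : (End K W)ˣ} {b : End K W} : cj g b = b ↔ (g : End K W) * b = b * g := by
  rw [cj_apply, Units.mul_inv_eq_iff_eq_mul]

theorem trace_cj [FiniteDimensional K W] (g : (End K W)ˣ) (b : End K W) :
    LinearMap.trace K W (cj g b) = LinearMap.trace K W b := by
  rw [cj_apply, LinearMap.trace_mul_comm, ← mul_assoc, Units.inv_mul, one_mul]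

theorem cj_sub_one_pow (X : (End K W)ˣ) (M : ℕ) (a : End K W) :
    ∃ a', ((cj X - 1) ^ M) a = (ad ((X : End K W) - 1) ^ M) a' := by
  set R : End K (End K W) := LinearMap.mulRight K ((X⁻¹ : (End K W)ˣ) : End K W)
  have h1 : cj X - 1 = ad ((X : End K W) - 1) * R := by
    apply LinearMap.ext
    intro b
    simp [cj_apply, ad_apply, R, mul_sub, sub_mul, mul_assoc]
  have h2 : Commute (ad ((X : End K W) - 1)) R := by
    apply LinearMap.ext
    intro b
    simp [ad_apply, R, mul_sub, sub_mul, mul_assoc]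
  exact ⟨(R ^ M) a, by rw [h1, h2.mul_pow]; rfl⟩

variable {p : ℕ} [hp : Fact p.Prime]

/-- sums over free orbits are norms. -/
theorem sum_cj_mem {X : (End K W)ˣ} {n : ℕ} (hX : X ^ p ^ (n + 1) = 1) {b : End K W}
    (hb : cj X b = b) (S : Finset (End K W)ˣ) (hS : ∀ g ∈ S, X * g * X⁻¹ ∈ S)
    (hfree : ∀ g ∈ S, ¬ Commute (X ^ p ^ n) g) :
    ∑ g ∈ S, cj g b ∈ LinearMap.range (∑ i ∈ range (p ^ (n + 1)), cj X ^ i) := by
  classical
  induction S using Finset.strongInduction with
  | H S ih =>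
  rcases S.eq_empty_or_nonempty with rfl | ⟨g0, hg0⟩
  · simp
  set N := p ^ (n + 1) with hN
  have hN0 : 0 < N := pow_pos hp.out.pos _
  set f : ℕ → (End K W)ˣ := fun i => X ^ i * g0 * (X ^ i)⁻¹ with hf
  have hfS : ∀ g ∈ S, ∀ i, X ^ i * g * (X ^ i)⁻¹ ∈ S := fun g hg i => by
    induction i with
    | zero => simpa
    | succ i ih2 =>
      have := hS _ ih2
      rw [pow_succ']
      convert this using 1
      group
  have hinj : Set.InjOn f (range N : Finset ℕ) := by
    have key : ∀ i j, i < j → j < N → f i ≠ f j := by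
      intro i j hij hj e
      apply hfree g0 hg0
      have h1 : X ^ (j - i) ∈ Subgroup.centralizer {g0} := by
        rw [Subgroup.mem_centralizer_singleton_iff]
        obtain ⟨t, rfl⟩ := Nat.exists_eq_add_of_le hij.le
        simp only [hf, pow_add] at e
        rw [Nat.add_sub_cancel_left]
        have : g0 = X ^ t * g0 * (X ^ t)⁻¹ := by
          calc g0 = (X ^ i)⁻¹ * (X ^ i * g0 * (X ^ i)⁻¹) * X ^ i := by group
            _ = _ := by rw [e]; group
        conv_rhs => rw [this]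
        group
      have := pow_mem_of_lt hp.out _ (by rw [hX]; exact one_mem _) h1 (by omega) (by omega)
      exact Subgroup.mem_centralizer_singleton_iff.mp this
    intro i hi j hj e
    rcases lt_trichotomy i j with h | h | h
    · exact absurd e (key i j h (by simpa using hj))
    · exact h
    · exact absurd e.symm (key j i h (by simpa using hi))
  set O := (range N).image f with hO
  have hOS : O ⊆ S := by
    intro g hg
    obtain ⟨i, _, rfl⟩ := mem_image.mp hg
    exact hfS _ hg0 i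
  have hmemO : ∀ i, f i ∈ O := fun i => by
    refine mem_image.mpr ⟨i % N, mem_range.mpr (Nat.mod_lt _ hN0), ?_⟩
    have : X ^ (i % N) = X ^ i := by
      conv_rhs => rw [← Nat.div_add_mod i N, pow_add, pow_mul, hX, one_pow, one_mul]
    simp only [hf, this]
  rw [← sum_sdiff hOS]
  refine add_mem (ih _ (sdiff_ssubset hOS ⟨_, hmemO 0⟩) ?_ fun g hg => hfree g (mem_sdiff.mp hg).1) ?_
  · intro g hg
    obtain ⟨h1, h2⟩ := mem_sdiff.mp hg
    refine mem_sdiff.mpr ⟨hS g h1, fun h3 => h2 ?_⟩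
    obtain ⟨i, _, e⟩ := mem_image.mp h3
    have h4 : X ^ (N - 1) = X⁻¹ := by
      rw [eq_inv_iff_mul_eq_one, ← pow_succ, Nat.sub_add_cancel hN0, hX]
    have : g = f (N - 1 + i) := by
      simp only [hf] at e ⊢
      rw [pow_add, h4]
      calc g = X⁻¹ * (X * g * X⁻¹) * X := by group
        _ = _ := by rw [← e]; group
    rw [this]
    exact hmemO _
  · rw [hO, sum_image hinj]
    refine ⟨cj g0 b, ?_⟩
    rw [LinearMap.sum_apply]
    refine sum_congr rfl fun i _ => ?_
    have h1 : cj (X ^ i)⁻¹ b = b := by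
      have : cj (X ^ i) b = b := by
        rw [cj_eq_iff, Units.val_pow_eq_pow_val]
        exact Commute.pow_left (cj_eq_iff.mp hb) i
      conv_lhs => rw [← this, ← Module.End.mul_apply, ← map_mul, inv_mul_cancel, map_one]
      rfl
    simp only [hf, map_mul, Module.End.mul_apply, h1, map_pow]

/-- irreducibility under `Q` and `X`. -/
def Irr (Q : Subgroup (End K W)ˣ) (X : (End K W)ˣ) : Prop :=
  ∀ U : Submodule K W, (∀ g ∈ Q, ∀ w ∈ U, (g : End K W) w ∈ U) →
    (∀ w ∈ U, (X : End K W) w ∈ U) → U = ⊥ ∨ U = ⊤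

theorem Irr.schur [IsAlgClosed K] [FiniteDimensional K W] [Nontrivial W]
    {Q : Subgroup (End K W)ˣ} {X : (End K W)ˣ} (h : Irr Q X) {b : End K W}
    (hQ : ∀ g ∈ Q, cj g b = b) (hX : cj X b = b) : ∃ c : K, b = c • 1 := by
  obtain ⟨c, hc⟩ := Module.End.exists_eigenvalue b
  have key : ∀ g : (End K W)ˣ, cj g b = b → ∀ w ∈ b.eigenspace c,
      (g : End K W) w ∈ b.eigenspace c := by
    intro g hg w hw
    rw [Module.End.mem_eigenspace_iff] at hw ⊢
    rw [← Module.End.mul_apply, ← cj_eq_iff.mp hg, Module.End.mul_apply, hw, map_smul]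
  rcases h (b.eigenspace c) (fun g hg => key g (hQ g hg)) (key X hX) with h0 | h0
  · exact absurd h0 hc
  · refine ⟨c, LinearMap.ext fun w => ?_⟩
    have : w ∈ b.eigenspace c := h0 ▸ Submodule.mem_top
    simpa using Module.End.mem_eigenspace_iff.mp this

/-- averaging over `Q`. -/
noncomputable def av (Q : Subgroup (End K W)ˣ) [Fintype Q] (b : End K W) : End K W :=
  ∑ g : Q, cj (g : (End K W)ˣ) b

theorem cj_av (Q : Subgroup (End K W)ˣ) [Fintype Q] (b : End K W) {h : (End K W)ˣ} (hh : h ∈ Q) :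
    cj h (av Q b) = av Q b := by
  rw [av, map_sum]
  refine Fintype.sum_equiv (Equiv.mulLeft (⟨h, hh⟩ : Q)) _ _ fun g => ?_
  simp

theorem cj_av_of_norm (Q : Subgroup (End K W)ˣ) [Fintype Q] {b : End K W} {X : (End K W)ˣ}
    (hX : ∀ g ∈ Q, X * g * X⁻¹ ∈ Q) (hb : cj X b = b) : cj X (av Q b) = av Q b := by
  rw [av, map_sum]
  let φ : Q → Q := fun g => ⟨X * g * X⁻¹, hX _ g.2⟩
  have hφ : Function.Bijective φ := Finite.injective_iff_bijective.mp fun g h e => by
    have := congrArg Subtype.val e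
    simp only [φ, mul_left_inj, mul_right_inj] at this
    exact Subtype.ext this
  refine Fintype.sum_bijective φ hφ _ _ fun g => ?_
  have : cj X⁻¹ b = b := by
    conv_lhs => rw [← hb, ← Module.End.mul_apply, ← map_mul, inv_mul_cancel, map_one]
    rfl
  simp only [φ, map_mul, Module.End.mul_apply, this]

theorem trace_av [FiniteDimensional K W] (Q : Subgroup (End K W)ˣ) [Fintype Q] (b : End K W) :
    LinearMap.trace K W (av Q b) = (Fintype.card Q : K) * LinearMap.trace K W b := by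
  simp [av, map_sum, trace_cj]

theorem card_ne_zero [CharP K p] {q : ℕ} (hq : q.Prime) (hpq : p ≠ q) {H : Type*} [Group H]
    [Finite H] (h : IsPGroup q H) : (Nat.card H : K) ≠ 0 := by
  haveI := Fact.mk hq
  obtain ⟨k, hk⟩ := h.exists_card_eq
  rw [hk, Ne, CharP.cast_eq_zero_iff K p]
  intro hd
  exact hpq ((Nat.prime_dvd_prime_iff_eq hp.out hq).mp (hp.out.dvd_of_dvd_pow hd))

theorem sum_split (Q : Subgroup (End K W)ˣ) [Fintype Q] (F : (End K W)ˣ → End K W) (b : End K W)
    (hF : ∀ g ∈ Q, g ∈ scal K W → F g = b) :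
    ∃ S : Finset (End K W)ˣ, (∀ g, g ∈ S ↔ g ∈ Q ∧ g ∉ scal K W) ∧
      ∑ g : Q, F g = (Nat.card ((scal K W).subgroupOf Q) : K) • b + ∑ g ∈ S, F g := by
  classical
  refine ⟨(univ.filter fun g : Q => (g : (End K W)ˣ) ∉ scal K W).map
    (Function.Embedding.subtype _), fun g => ?_, ?_⟩
  · simp only [mem_map, mem_filter, mem_univ, true_and, Function.Embedding.subtype_apply,
      Subtype.exists, exists_prop]
    constructor
    · rintro ⟨a, h1, h2, rfl⟩; exact ⟨h1, h2⟩
    · rintro ⟨h1, h2⟩; exact ⟨g, h1, h2, rfl⟩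
  · rw [sum_map, ← sum_filter_add_sum_filter_not univ fun g : Q => (g : (End K W)ˣ) ∈ scal K W]
    congr 1
    rw [sum_congr rfl fun (g : Q) hg => hF g g.2 (mem_filter.mp hg).2, sum_const,
      Nat.cast_smul_eq_nsmul]
    congr 1
    rw [Nat.card_eq_fintype_card, Fintype.card_subtype]
    rfl

section Final
variable [IsAlgClosed K] [FiniteDimensional K W] [Nontrivial W] [CharP K p] {q : ℕ}
  {Q : Subgroup (End K W)ˣ} [Finite Q] {X : (End K W)ˣ} {n : ℕ}

theorem fixed_eq (hq : q.Prime) (hpq : p ≠ q) (hQ : IsPGroup q Q) (hX : X ^ p ^ (n + 1) = 1)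
    (hn : ∀ g ∈ Q, X * g * X⁻¹ ∈ Q) (hirr : Irr Q X)
    (hfree : ∀ g ∈ Q, Commute (X ^ p ^ n) g → g ∈ scal K W) (b : End K W)
    (hb : ((X : End K W) - 1) * b = b * ((X : End K W) - 1)) :
    ∃ (c : K) (a : End K W), b = c • 1 + (ad ((X : End K W) - 1) ^ (p ^ (n + 1) - 1)) a := by
  haveI := Fintype.ofFinite Q
  have hb' : cj X b = b := by
    rw [cj_eq_iff]
    simpa [sub_mul, mul_sub] using hb
  obtain ⟨c, hc⟩ := hirr.schur (fun g hg => cj_av Q b hg) (cj_av_of_norm Q hn hb')
  obtain ⟨S, hS, e⟩ := sum_split Q (fun g => cj g b) b fun g _ hg => cj_eq_iff.mpr (scal_comm hg b)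
  have hz := card_ne_zero (K := K) hq hpq (hQ.to_subgroup ((scal K W).subgroupOf Q))
  obtain ⟨a, ha⟩ := sum_cj_mem hX hb' S (fun g hg => by
    rw [hS] at hg ⊢
    refine ⟨hn g hg.1, fun h => hg.2 ?_⟩
    have : X⁻¹ * (X * g * X⁻¹) * X = X * g * X⁻¹ := by
      apply Units.ext
      rw [Units.val_mul, Units.val_mul _ (X * g * X⁻¹), ← scal_comm h, mul_assoc, Units.inv_mul,
        mul_one]
    rw [← this] at h
    simpa [mul_assoc] using h) fun g hg h => ((hS g).mp hg).2 (hfree g ((hS g).mp hg).1 h)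
  rw [geom_sum_char K p] at ha
  obtain ⟨a', ha'⟩ := cj_sub_one_pow X (p ^ (n + 1) - 1) a
  set z : K := (Nat.card ((scal K W).subgroupOf Q) : K)
  refine ⟨z⁻¹ * c, -(z⁻¹ • a'), ?_⟩
  rw [map_neg, map_smul, ← ha', ha, mul_smul, ← hc, av, e, smul_add, smul_smul,
    inv_mul_cancel₀ hz, one_smul, add_neg_cancel_right]

theorem scalar_of_comm (hX : X ^ p ^ (n + 1) = 1) (hn : ∀ g ∈ Q, X * g * X⁻¹ ∈ Q)
    (hirr : Irr Q X) (hd : (finrank K W : K) ≠ 0) (b : End K W) (hb : ∀ g ∈ Q, cj g b = b) :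
    ∃ c : K, b = c • 1 := by
  have hX' : ∀ g ∈ Q, X⁻¹ * g * X ∈ Q := by
    intro g hg
    have := (Subgroup.mem_normalizer_fintype hn)
    exact (Subgroup.mem_normalizer_iff''.mp this g).mp hg
  have key : ∀ (k : ℕ) (b : End K W), (∀ g ∈ Q, cj g b = b) →
      (∃ c : K, ((cj X - 1) ^ k) b = c • (1 : End K W)) →
      ∃ c : K, b = c • 1 := by
    intro k
    induction k with
    | zero => intro b _ h; simpa using h
    | succ k ih =>
      intro b hb h
      rw [pow_succ, Module.End.mul_apply] at h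
      obtain ⟨c, hc⟩ := ih _ (fun g hg => by
        rw [LinearMap.sub_apply, map_sub, Module.End.one_apply, hb g hg, ← Module.End.mul_apply,
          ← map_mul, show g * X = X * (X⁻¹ * g * X) by group, map_mul, Module.End.mul_apply,
          hb _ (hX' g hg)]) h
      have ht := congrArg (LinearMap.trace K W) hc
      rw [LinearMap.sub_apply, map_sub, trace_cj, Module.End.one_apply, sub_self, map_smul,
        LinearMap.trace_one, smul_eq_mul] at ht
      have hc0 : c = 0 := (mul_eq_zero.mp ht.symm).resolve_right hd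
      rw [hc0, zero_smul, LinearMap.sub_apply, sub_eq_zero] at hc
      exact hirr.schur hb hc
  refine key (p ^ (n + 1)) b hb ⟨0, ?_⟩
  rw [sub_one_pow_char K p, ← map_pow, hX, map_one, sub_self]
  simp

theorem sq_finrank (hq : q.Prime) (hpq : p ≠ q) (hQ : IsPGroup q Q) (hd : (finrank K W : K) ≠ 0)
    (hC : ∀ b : End K W, (∀ g ∈ Q, cj g b = b) → ∃ c : K, b = c • 1)
    (hcomm : ∀ g ∈ Q, ∀ h ∈ Q, h * g * h⁻¹ * g⁻¹ ∈ scal K W) :
    finrank K W ^ 2 = ((scal K W).subgroupOf Q).index := by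
  classical
  haveI := Fintype.ofFinite Q
  set Z := (scal K W).subgroupOf Q with hZ
  haveI := Fintype.ofFinite (Q ⧸ Z)
  have hQ0 : (Fintype.card Q : K) ≠ 0 := by
    rw [← Nat.card_eq_fintype_card]; exact card_ne_zero hq hpq hQ
  have hz : (Nat.card Z : K) ≠ 0 := card_ne_zero hq hpq (hQ.to_subgroup Z)
  have hns : ∀ h ∈ Q, h ∉ scal K W → ∃ g ∈ Q, ∃ c : K, c ≠ 1 ∧
      ((h * g * h⁻¹ * g⁻¹ : (End K W)ˣ) : End K W) = c • 1 := by
    intro h hh hs
    by_contra hcon
    push Not at hcon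
    obtain ⟨c, hc⟩ := hC h fun g hg => by
      obtain ⟨c, hc⟩ := mem_scal.mp (hcomm g hg h hh)
      have h1 : (c : K) = 1 := by
        by_contra h1
        exact hcon g hg c h1 hc
      rw [h1, one_smul] at hc
      have h2 : h * g * h⁻¹ * g⁻¹ = 1 := Units.ext hc
      rw [cj_eq_iff, ← Units.val_mul, ← Units.val_mul]
      congr 1
      calc g * h = (h * g * h⁻¹ * g⁻¹) * g * h := by rw [h2, one_mul]
        _ = h * g := by group
    exact hs (mem_scal_of hc)
  have htr : ∀ h ∈ Q, h ∉ scal K W → LinearMap.trace K W (h : End K W) = 0 := by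
    intro h hh hs
    obtain ⟨g, hg, c, hc1, hc⟩ := hns h hh hs
    have h1 : (h : End K W) = c • cj g (h : End K W) := by
      rw [cj_apply, ← Units.val_mul, ← Units.val_mul, ← smul_one_mul, ← hc, ← Units.val_mul]
      congr 1
      group
    have h2 := congrArg (LinearMap.trace K W) h1
    rw [map_smul, trace_cj, smul_eq_mul] at h2
    have : (1 - c) * LinearMap.trace K W (h : End K W) = 0 := by rw [sub_mul, one_mul, ← h2, sub_self]
    exact (mul_eq_zero.mp this).resolve_left (sub_ne_zero.mpr hc1.symm)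
  set e : Q ⧸ Z → (End K W)ˣ := fun ω => (ω.out : Q) with he
  have heQ : ∀ ω, e ω ∈ Q := fun ω => ω.out.2
  rw [Subgroup.index, Nat.card_eq_fintype_card, sq, ← Module.finrank_linearMap K K W W]
  apply le_antisymm
  · let φ : End K W →ₗ[K] (Q ⧸ Z → K) :=
      LinearMap.pi fun ω => (LinearMap.trace K W).comp (LinearMap.mulRight K (e ω : End K W))
    have hφ : Function.Injective φ := by
      rw [injective_iff_map_eq_zero]
      intro b hb
      have h1 : ∀ g : Q, LinearMap.trace K W (b * ((g : (End K W)ˣ) : End K W)) = 0 := by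
        intro g
        obtain ⟨z, hz⟩ := QuotientGroup.mk_out_eq_mul Z g
        obtain ⟨c, hc⟩ := mem_scal.mp (Subgroup.mem_subgroupOf.mp z.2)
        have h2 : LinearMap.trace K W (b * (e (g : Q ⧸ Z) : End K W)) = 0 := congrFun hb _
        simp only [he, hz, Subgroup.coe_mul, Units.val_mul, hc, mul_smul_comm, mul_one, map_smul,
          smul_eq_mul] at h2
        exact (mul_eq_zero.mp h2).resolve_left c.ne_zero
      have h2 : ∀ g : Q, ∑ h : Q, cj (h : (End K W)ˣ) b *
          (((h : (End K W)ˣ) * g * (h : (End K W)ˣ)⁻¹ * (g : (End K W)ˣ)⁻¹ : (End K W)ˣ) :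
            End K W) = 0 := by
        intro g
        obtain ⟨c, hc⟩ := hC (av Q (b * ((g : (End K W)ˣ) : End K W))) fun h hh => cj_av Q _ hh
        have ht := congrArg (LinearMap.trace K W) hc
        rw [trace_av, h1, mul_zero, map_smul, LinearMap.trace_one, smul_eq_mul] at ht
        rw [(mul_eq_zero.mp ht.symm).resolve_right hd, zero_smul] at hc
        have := congrArg (· * (((g : (End K W)ˣ)⁻¹ : (End K W)ˣ) : End K W)) hc
        simp only [av, sum_mul, zero_mul] at this
        rw [← this]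
        refine sum_congr rfl fun h _ => ?_
        simp [cj_apply, mul_assoc]
      have h3 := sum_eq_zero fun (g : Q) (_ : g ∈ univ) => h2 g
      rw [sum_comm] at h3
      simp only [← mul_sum] at h3
      obtain ⟨S, hS, e1⟩ := sum_split Q (fun h => cj h b *
        ∑ g : Q, ((h * g * h⁻¹ * (g : (End K W)ˣ)⁻¹ : (End K W)ˣ) : End K W))
        ((Fintype.card Q : K) • b) fun h _ hh => by
          rw [cj_eq_iff.mpr (scal_comm hh b), sum_congr rfl (g := fun _ => (1 : End K W))]
          · simp [Nat.cast_smul_eq_nsmul, Nat.cast_comm]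
          · intro g _
            rw [Units.val_mul, Units.val_mul, Units.val_mul, scal_comm hh]
            simp [mul_assoc]
      rw [h3, sum_eq_zero, add_zero, smul_smul] at e1
      · exact (smul_eq_zero.mp e1.symm).resolve_left (mul_ne_zero hz hQ0)
      intro h hh
      obtain ⟨hh1, hh2⟩ := (hS h).mp hh
      obtain ⟨g0, hg0, c, hc1, hc⟩ := hns h hh1 hh2
      set s := ∑ g : Q, ((h * g * h⁻¹ * (g : (End K W)ˣ)⁻¹ : (End K W)ˣ) : End K W) with hs
      have h4 : s = c • s := by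
        rw [hs, smul_sum]
        refine (Fintype.sum_equiv (Equiv.mulLeft (⟨g0, hg0⟩ : Q)) _ _ fun g => ?_).symm
        have h5 := scal_comm (hcomm g g.2 h hh1) (g0 : End K W)
        rw [← smul_one_mul, ← hc, ← Units.val_mul]
        rw [← Units.val_mul, ← Units.val_mul, Units.val_inj] at h5
        congr 1
        simp only [Equiv.coe_mulLeft, Subgroup.coe_mul]
        calc h * g0 * h⁻¹ * g0⁻¹ * (h * g * h⁻¹ * (g : (End K W)ˣ)⁻¹)
            = h * g0 * h⁻¹ * g0⁻¹ * (h * g * h⁻¹ * (g : (End K W)ˣ)⁻¹ * g0) * g0⁻¹ := by group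
          _ = _ := by rw [h5]; group
      have h6 : (1 - c) • s = 0 := by rw [sub_smul, one_smul, ← h4, sub_self]
      rw [(smul_eq_zero.mp h6).resolve_left (sub_ne_zero.mpr hc1.symm), mul_zero]
    simpa using LinearMap.finrank_le_finrank_of_injective hφ
  · refine LinearIndependent.fintype_card_le_finrank (b := fun ω => (e ω : End K W)) ?_
    rw [Fintype.linearIndependent_iff]
    intro c hc ω
    have := congrArg (fun b => LinearMap.trace K W ((((e ω)⁻¹ : (End K W)ˣ) : End K W) * b)) hc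
    simp only [mul_sum, map_sum, mul_smul_comm, map_smul, mul_zero, map_zero, smul_eq_mul] at this
    rw [sum_eq_single ω] at this
    · rw [Units.inv_mul, LinearMap.trace_one] at this
      exact (mul_eq_zero.mp this).resolve_right hd
    · intro ω' _ hne
      rw [← Units.val_mul, htr _ (mul_mem (inv_mem (heQ ω)) (heQ ω')), mul_zero]
      intro h
      apply hne
      rw [← ω.out_eq, ← ω'.out_eq]
      exact (QuotientGroup.eq.mpr (Subgroup.mem_subgroupOf.mpr h)).symm
    · simp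

/-- The irreducible case of Theorem B. -/
theorem final (hq : q.Prime) (hpq : p ≠ q) (hQ : IsPGroup q Q) (hX : X ^ p ^ (n + 1) = 1)
    (hn : ∀ g ∈ Q, X * g * X⁻¹ ∈ Q) (hirr : Irr Q X) (hX1 : X ≠ 1)
    (hfree : ∀ g ∈ Q, Commute (X ^ p ^ n) g → g ∈ scal K W)
    (hcomm : ∀ g ∈ Q, ∀ h ∈ Q, h * g * h⁻¹ * g⁻¹ ∈ scal K W) {r : ℕ}
    (hr : ((X : End K W) - 1) ^ r = 0) (hlt : r < p ^ (n + 1)) :
    (∃ m, p ^ (n + 1) - 1 = q ^ m) ∧ p ^ (n + 1) - 1 ≤ r ∧ finrank K W = p ^ (n + 1) - 1 := by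
  obtain ⟨h1, h2⟩ := core (sub_ne_zero.mpr fun h => hX1 (Units.ext h))
    (fixed_eq hq hpq hQ hX hn hirr hfree) hr (by omega)
  refine ⟨?_, h2, h1⟩
  have hd : (finrank K W : K) ≠ 0 := by
    rw [h1, Nat.cast_sub (by omega), Nat.cast_pow, CharP.cast_eq_zero]
    simp
  have h3 := sq_finrank hq hpq hQ hd (scalar_of_comm hX hn hirr hd) hcomm
  haveI := Fact.mk hq
  obtain ⟨k, hk⟩ := hQ.index ((scal K W).subgroupOf Q)
  have : finrank K W ∣ q ^ k := by rw [← hk, ← h3]; exact dvd_pow_self _ two_ne_zero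
  obtain ⟨m, _, hm⟩ := (Nat.dvd_prime_pow hq).mp this
  exact ⟨m, h1 ▸ hm⟩

end Final

end Cfsg.Agent.H5.HH
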