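import Cfsg.Agent.H5.HHB2

/-! Hall--Higman Theorem B: the induction. -/

set_option autoImplicit false

namespace Cfsg.Agent.H5.HH

open Module Finset Subgroup

universe u v

section Grp
variable {G : Type*} [Group G] {p q : ℕ} {Q : Subgroup G} [Finite Q] {X Y : G}

/-- `R` is `X`-invariant. -/
def Nrm (X : G) (R : Subgroup G) : Prop := ∀ g ∈ R, X * g * X⁻¹ ∈ R

theorem Nrm.inv (h : Nrm X Q) : Nrm X⁻¹ Q := fun g hg => by
  have := (mem_normalizer_iff''.mp (mem_normalizer_fintype h) g).mp hg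
  simpa using this

omit [Finite Q] in
theorem Nrm.pow (h : Nrm X Q) (k : ℕ) : Nrm (X ^ k) Q := fun g hg => by
  induction k with
  | zero => simpa
  | succ k ih =>
    have := h _ ih
    rw [pow_succ']
    convert this using 1
    group

/-- the group-theoretic hypotheses in a minimal configuration. -/
structure MinConf (p q : ℕ) (Q : Subgroup G) (X Y : G) : Prop where
  hp : p.Prime
  hq : q.Prime
  hpq : p ≠ q
  hQ : IsPGroup q Q
  nX : Nrm X Q
  nY : Nrm Y Q
  comm : Commute X Y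
  hY : Y ^ p = 1
  nc : ∃ g ∈ Q, ¬ Commute Y g
  min : ∀ R < Q, Nrm X R → ∀ g ∈ R, Commute Y g

theorem MinConf.eq_of (h : MinConf p q Q X Y) {N : Subgroup G} (hN : N ≤ Q) (hX : Nrm X N)
    (hc : ∀ g ∈ Q, g⁻¹ * (Y * g * Y⁻¹) ∈ N) : N = Q := by
  by_contra hne
  obtain ⟨g, hg, hng⟩ := h.nc
  apply hng
  set n := g⁻¹ * (Y * g * Y⁻¹) with hn
  have hc1 : Commute Y n := h.min N (lt_of_le_of_ne hN hne) hX n (hc g hg)
  have key : ∀ k : ℕ, Y ^ k * g = g * n ^ k * Y ^ k := by
    intro k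
    induction k with
    | zero => simp
    | succ k ih =>
      have e1 : Y * g = g * n * Y := by rw [hn]; group
      rw [pow_succ', mul_assoc, ih, ← mul_assoc, ← mul_assoc, e1, mul_assoc _ Y,
        (hc1.pow_right k).eq, pow_succ' n]
      simp only [mul_assoc]
  have h1 : n ^ p = 1 := by simpa [h.hY] using key p
  obtain ⟨k, hk⟩ := h.hQ ⟨n, hN (hc g hg)⟩
  have h2 : n ^ q ^ k = 1 := congrArg Subtype.val hk
  have h3 : n = 1 := by
    have := pow_gcd_eq_one.mpr ⟨h1, h2⟩
    rwa [((Nat.coprime_primes h.hp h.hq).mpr h.hpq).pow_right k, pow_one] at this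
  show Y * g = g * Y
  simpa [h3] using key 1

theorem MinConf.central (h : MinConf p q Q X Y) {d : G} (hd : d ∈ Q) (hc : Commute Y d) :
    ∀ g ∈ Q, Commute d g := by
  haveI := Fact.mk h.hq
  haveI := h.hQ.isNilpotent
  set D := Q ⊓ centralizer {Y} with hD
  have hmem : ∀ {g}, g ∈ D ↔ g ∈ Q ∧ Commute Y g := fun {g} => by
    rw [hD, Subgroup.mem_inf, mem_centralizer_singleton_iff]
    exact and_congr_right fun _ => ⟨fun e => e.symm, fun e => e.symm⟩
  have hDX : ∀ {Z : G}, Commute Z Y → Nrm Z Q → Nrm Z D := fun {Z} h1 h2 g hg =>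
    hmem.mpr ⟨h2 g (hmem.mp hg).1,
      (h1.symm.mul_right (hmem.mp hg).2).mul_right h1.symm.inv_right⟩
  have hXD : X ∈ normalizer (D : Set G) := by
    rw [mem_normalizer_iff]
    refine fun g => ⟨hDX h.comm h.nX g, fun hg => ?_⟩
    simpa [mul_assoc] using hDX h.comm.inv_left h.nX.inv _ hg
  have hN : Q ⊓ normalizer (D : Set G) = Q := by
    by_contra hne
    have h1 := h.min _ (lt_of_le_of_ne inf_le_left hne) fun g hg =>
      Subgroup.mem_inf.mpr ⟨h.nX g hg.1, mul_mem (mul_mem hXD hg.2) (inv_mem hXD)⟩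
    have h2 : D.subgroupOf Q < ⊤ := by
      rw [lt_top_iff_ne_top, Ne, subgroupOf_eq_top]
      intro hle
      obtain ⟨g, hg, hng⟩ := h.nc
      exact hng (hmem.mp (hle hg)).2
    obtain ⟨g, hg1, hg2⟩ := SetLike.exists_of_lt (Group.normalizerCondition_of_isNilpotent _ h2)
    rw [← subgroupOf_normalizer_eq inf_le_left] at hg1
    exact hg2 (mem_subgroupOf.mpr (hmem.mpr ⟨g.2, h1 g ⟨g.2, hg1⟩⟩))
  have hC : Q ⊓ centralizer (D : Set G) = Q := by
    refine h.eq_of inf_le_left (fun g hg => ⟨h.nX g hg.1, fun e he => ?_⟩) fun g hg =>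
      ⟨Q.mul_mem (Q.inv_mem hg) (h.nY g hg), fun e he => ?_⟩
    · have := hg.2 _ (hDX h.comm.inv_left h.nX.inv e he)
      calc e * (X * g * X⁻¹) = X * (X⁻¹ * e * X⁻¹⁻¹ * g) * X⁻¹ := by group
        _ = _ := by rw [this]; group
    · have h1 : g ∈ normalizer (D : Set G) := (hN.ge hg).2
      have h2 := (hmem.mp ((mem_normalizer_iff.mp h1 e).mp he)).2.eq
      have h3 := (hmem.mp he).2.eq
      calc e * (g⁻¹ * (Y * g * Y⁻¹)) = g⁻¹ * (g * e * g⁻¹ * Y) * g * Y⁻¹ := by group
        _ = g⁻¹ * Y * g * Y⁻¹ * (Y * e) * Y⁻¹ := by rw [← h2]; group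
        _ = _ := by rw [h3]; group
  intro g hg
  exact (hC.ge hg).2 d (hmem.mpr ⟨hd, hc⟩)

theorem MinConf.comm_central (h : MinConf p q Q X Y) {a b : G} (ha : a ∈ Q) (hb : b ∈ Q) :
    Commute Y (a * b * a⁻¹ * b⁻¹) := by
  haveI := Fact.mk h.hq
  haveI := h.hQ.isNilpotent
  have hne : Q ≠ ⊥ := by
    rintro rfl
    obtain ⟨g, hg, hng⟩ := h.nc
    exact hng (mem_bot.mp hg ▸ Commute.one_right Y)
  haveI := (nontrivial_iff_ne_bot Q).mpr hne
  have h1 : ⁅Q, Q⁆ < Q := by
    rw [← map_subtype_commutator]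
    conv_rhs => rw [← Q.range_subtype, MonoidHom.range_eq_map]
    exact (map_lt_map_iff_of_injective Q.subtype_injective).mpr
      (Group.IsSolvable.commutator_lt_top_of_nontrivial Q)
  refine h.min _ h1 (fun g hg => ?_) _ (commutator_mem_commutator ha hb)
  have h2 : Q.map (MulAut.conj X).toMonoidHom ≤ Q := by
    rintro _ ⟨g, hg, rfl⟩; exact h.nX g hg
  have h3 : ⁅Q, Q⁆.map (MulAut.conj X).toMonoidHom ≤ ⁅Q, Q⁆ := by
    rw [map_commutator]; exact commutator_mono h2 h2
  exact h3 ⟨g, hg, rfl⟩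

end Grp

/-- `Q` is nonabelian. -/
def NC {G : Type*} [Group G] (Q : Subgroup G) : Prop := ∃ a ∈ Q, ∃ b ∈ Q, a * b ≠ b * a

/-- The conclusion of Theorem B. -/
def Concl (p q n r : ℕ) (nc : Prop) : Prop :=
  p ^ n ≤ r ∨ (nc ∧ ∃ n₀ m, 1 ≤ n₀ ∧ n₀ ≤ n ∧ 1 ≤ m ∧ p ^ n₀ - 1 = q ^ m ∧
    p ^ (n - n₀) * (p ^ n₀ - 1) ≤ r)

theorem Concl.mono {p q n r : ℕ} {a b : Prop} (h : Concl p q n r a) (hab : a → b) :
    Concl p q n r b := h.imp_right (And.imp_left hab)

theorem Concl.lift {p q n r k : ℕ} {a : Prop} (h : Concl p q n (r / p ^ k) a) :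
    Concl p q (n + k) r a := by
  have h0 := Nat.mul_div_le r (p ^ k)
  rcases h with h | ⟨ha, n₀, m, h1, h2, h3, h4, h5⟩
  · left
    rw [pow_add, mul_comm]
    exact (Nat.mul_le_mul_left _ h).trans h0
  · refine Or.inr ⟨ha, n₀, m, h1, by omega, h3, h4, ?_⟩
    rw [show n + k - n₀ = k + (n - n₀) by omega, pow_add, mul_assoc]
    exact (Nat.mul_le_mul_left _ h5).trans h0

/-- The statement for configurations of size `< m`. -/
def Stmt (K : Type u) [Field K] (p q m : ℕ) : Prop :=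
  ∀ (W : Type v) [AddCommGroup W] [Module K W] [FiniteDimensional K W]
    (Q : Subgroup (End K W)ˣ) [Finite Q] (X : (End K W)ˣ) (n r : ℕ),
    n + Nat.card Q + finrank K W < m → IsPGroup q Q → X ^ p ^ (n + 1) = 1 → Nrm X Q →
    (∃ g ∈ Q, ¬ Commute (X ^ p ^ n) g) → ((X : End K W) - 1) ^ r = 0 →
    Concl p q (n + 1) r (NC Q)

variable {K : Type u} [Field K]

theorem Stmt.hom {p q m : ℕ} (h : Stmt.{u, v} K p q m) {W : Type v} [AddCommGroup W] [Module K W]
    [FiniteDimensional K W] {Γ : Type*} [Group Γ] (ρ : Γ →* (End K W)ˣ) (Q : Subgroup Γ)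
    [Finite Q] (X : Γ) (n r : ℕ) (hm : n + Nat.card Q + finrank K W < m) (hQ : IsPGroup q Q)
    (hX : X ^ p ^ (n + 1) = 1) (hn : Nrm X Q) (hc : ∃ g ∈ Q, ¬ Commute (ρ X ^ p ^ n) (ρ g))
    (hr : ((ρ X : End K W) - 1) ^ r = 0) : Concl p q (n + 1) r (NC Q) := by
  haveI : Finite (Q.map ρ) := Finite.of_surjective _ (ρ.subgroupMap_surjective Q)
  have hle : Nat.card (Q.map ρ) ≤ Nat.card Q :=
    Nat.card_le_card_of_surjective _ (ρ.subgroupMap_surjective Q)
  refine (h W (Q.map ρ) (ρ X) n r (by omega) (hQ.map ρ) (by rw [← map_pow, hX, map_one]) ?_ ?_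
    hr).mono ?_
  · rintro _ ⟨g, hg, rfl⟩
    exact ⟨_, hn g hg, by simp⟩
  · obtain ⟨g, hg, h⟩ := hc
    exact ⟨_, ⟨g, hg, rfl⟩, h⟩
  · rintro ⟨_, ⟨a, ha, rfl⟩, _, ⟨b, hb, rfl⟩, hab⟩
    exact ⟨a, ha, b, hb, fun e => hab (by rw [← map_mul, e, map_mul])⟩

variable {W : Type v} [AddCommGroup W] [Module K W]

/-- stabilizer of a subspace. -/
def stab (U : Submodule K W) : Subgroup (End K W)ˣ where
  carrier := {g | ∀ w, w ∈ U ↔ (g : End K W) w ∈ U}
  one_mem' := fun _ => Iff.rfl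
  mul_mem' := fun {a b} ha hb w => (hb w).trans (ha _)
  inv_mem' := fun {a} ha w => by
    rw [ha ((↑a⁻¹ : End K W) w), ← Module.End.mul_apply, Units.mul_inv]
    rfl

theorem pow_apply_mem {U : Submodule K W} {g : (End K W)ˣ} (h : ∀ w ∈ U, (g : End K W) w ∈ U)
    (k : ℕ) : ∀ w ∈ U, ((g ^ k : (End K W)ˣ) : End K W) w ∈ U := by
  induction k with
  | zero => intro w hw; simpa
  | succ k ih => intro w hw; rw [pow_succ']; exact h _ (ih w hw)

theorem mem_stab {U : Submodule K W} {g : (End K W)ˣ} {k : ℕ} (hk : 0 < k) (hg : g ^ k = 1)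
    (h : ∀ w ∈ U, (g : End K W) w ∈ U) : g ∈ stab U := by
  refine fun w => ⟨h w, fun hw => ?_⟩
  have := pow_apply_mem h (k - 1) _ hw
  rwa [← Module.End.mul_apply, ← Units.val_mul, ← pow_succ, Nat.sub_add_cancel hk, hg] at this

/-- restriction to an invariant subspace. -/
noncomputable def res (U : Submodule K W) : stab U →* (End K U)ˣ :=
  MonoidHom.toHomUnits
    { toFun := fun g => ((g : (End K W)ˣ) : End K W).restrict fun w hw => (g.2 w).mp hw
      map_one' := by ext; simp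
      map_mul' := fun _ _ => by ext; simp }

theorem res_apply (U : Submodule K W) (g : stab U) (w : U) :
    ((res U g : End K U) w : W) = ((g : (End K W)ˣ) : End K W) w := rfl

theorem Stmt.restrict {p q m : ℕ} (h : Stmt.{u, v} K p q m) (hp : 0 < p) [FiniteDimensional K W]
    (Q : Subgroup (End K W)ˣ) [Finite Q] (X : (End K W)ˣ) (n r : ℕ) (U : Submodule K W)
    (hm : n + Nat.card Q + finrank K U < m) (hQ : IsPGroup q Q) (hX : X ^ p ^ (n + 1) = 1)
    (hn : Nrm X Q) (hQU : ∀ g ∈ Q, ∀ w ∈ U, (g : End K W) w ∈ U)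
    (hXU : ∀ w ∈ U, (X : End K W) w ∈ U)
    (hc : ∃ g ∈ Q, ∃ w ∈ U, ((X ^ p ^ n * g : (End K W)ˣ) : End K W) w ≠
      ((g * X ^ p ^ n : (End K W)ˣ) : End K W) w)
    (hr : ∀ w ∈ U, (((X : End K W) - 1) ^ r) w = 0) : Concl p q (n + 1) r (NC Q) := by
  have hQs : Q ≤ stab U := fun g hg => mem_stab (Nat.card_pos (α := Q))
    (congrArg Subtype.val (pow_card_eq_one' (x := (⟨g, hg⟩ : Q)))) (hQU g hg)
  have hXs : X ∈ stab U := mem_stab (pow_pos hp _) hX hXU
  have e := subgroupOfEquivOfLe hQs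
  haveI : Finite (Q.subgroupOf (stab U)) := Finite.of_equiv _ e.toEquiv.symm
  refine (h.hom (res U) (Q.subgroupOf (stab U)) ⟨X, hXs⟩ n r (by rwa [Nat.card_congr e.toEquiv])
    (hQ.of_equiv e.symm) (Subtype.ext hX) (fun g hg => hn g hg) ?_ ?_).mono ?_
  · obtain ⟨g, hg, w, hw, hne⟩ := hc
    refine ⟨⟨g, hQs hg⟩, hg, fun hc => hne ?_⟩
    rw [← map_pow, Commute, SemiconjBy, ← map_mul, ← map_mul] at hc
    have := congrArg (fun f : (End K U)ˣ => ((f : End K U) ⟨w, hw⟩ : W)) hc
    exact this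
  · have key : ∀ (k : ℕ) (w : U), ((((res U ⟨X, hXs⟩ : End K U) - 1) ^ k) w : W) =
        (((X : End K W) - 1) ^ k) w := by
      intro k
      induction k with
      | zero => intro w; rfl
      | succ k ih => intro w; rw [pow_succ, pow_succ, Module.End.mul_apply, ih]; rfl
    ext w
    rw [key, hr w w.2]; rfl
  · rintro ⟨a, ha, b, hb, hab⟩
    exact ⟨a, ha, b, hb, fun e => hab (Subtype.ext e)⟩

/-- pointwise stabilizer of a subspace. -/
def fixr (U : Submodule K W) : Subgroup (End K W)ˣ where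
  carrier := {g | ∀ w ∈ U, (g : End K W) w = w}
  one_mem' := fun _ _ => rfl
  mul_mem' := fun {a b} ha hb w hw => by
    rw [Units.val_mul, Module.End.mul_apply, hb w hw, ha w hw]
  inv_mem' := fun {a} ha w hw => by
    conv_lhs => rw [← ha w hw, ← Module.End.mul_apply, Units.inv_mul]
    rfl

/-- weight spaces. -/
def wt (A : Subgroup (End K W)ˣ) (l : (End K W)ˣ → K) : Submodule K W where
  carrier := {w | ∀ z ∈ A, (z : End K W) w = l z • w}
  zero_mem' := fun _ _ => by simp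
  add_mem' := fun {a b} ha hb z hz => by rw [map_add, ha z hz, hb z hz, smul_add]
  smul_mem' := fun c w hw z hz => by rw [map_smul, hw z hz, smul_comm]

theorem wt_indep {A : Subgroup (End K W)ˣ} {l : (End K W)ˣ → K} {ι : Type*} (s : Finset ι)
    (μ : ι → (End K W)ˣ → K) (hμ : ∀ i ∈ s, ∃ z ∈ A, μ i z ≠ l z) (w : W) (hw : w ∈ wt A l)
    (v : ι → W) (hv : ∀ i ∈ s, v i ∈ wt A (μ i)) (h : w + ∑ i ∈ s, v i = 0) : w = 0 := by
  classical
  induction s using Finset.induction_on generalizing w v with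
  | empty => simpa using h
  | insert j s hj ih =>
    obtain ⟨z, hz, hne⟩ := hμ j (mem_insert_self _ _)
    have h1 := ih (fun i hi => hμ i (mem_insert_of_mem hi)) ((l z - μ j z) • w)
      (Submodule.smul_mem _ _ hw) (fun i => (μ i z - μ j z) • v i)
      (fun i hi => Submodule.smul_mem _ _ (hv i (mem_insert_of_mem hi))) (by
        have h2 := congrArg (fun u => (z : End K W) u - μ j z • u) h
        simp only [sum_insert hj, map_add, map_sum, smul_add, smul_sum, map_zero, smul_zero,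
          sub_zero] at h2
        rw [hw z hz, hv j (mem_insert_self _ _) z hz,
          sum_congr rfl fun i hi => hv i (mem_insert_of_mem hi) z hz] at h2
        simp only [sub_smul, sum_sub_distrib]
        rw [← h2]; abel)
    exact (smul_eq_zero.mp h1).resolve_left (sub_ne_zero.mpr hne.symm)

theorem exists_wt [IsAlgClosed K] [FiniteDimensional K W] [Nontrivial W]
    (A : Subgroup (End K W)ˣ) (hA : ∀ a ∈ A, ∀ b ∈ A, a * b = b * a) : ∃ l, wt A l ≠ ⊥ := by
  classical
  obtain ⟨U, ⟨hU0, hU⟩, hmin⟩ := exists_minimalFor_of_wellFoundedLT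
    (fun U : Submodule K W => U ≠ ⊥ ∧ ∀ z ∈ A, ∀ w ∈ U, (z : End K W) w ∈ U)
    (fun U => finrank K U) ⟨⊤, top_ne_bot, fun _ _ _ _ => trivial⟩
  haveI := Submodule.nontrivial_iff_ne_bot.mpr hU0
  have key : ∀ z ∈ A, ∃ c : K, ∀ w ∈ U, (z : End K W) w = c • w := by
    intro z hz
    obtain ⟨c, hc⟩ := Module.End.exists_eigenvalue ((z : End K W).restrict (hU z hz))
    obtain ⟨w, hw, hw0⟩ := hc.exists_hasEigenvector
    have h1 : U ⊓ (z : End K W).eigenspace c = U := by
      refine Submodule.eq_of_le_of_finrank_le inf_le_left 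
        (hmin ⟨?_, ?_⟩ (Submodule.finrank_mono inf_le_left))
      · rw [Submodule.ne_bot_iff]
        refine ⟨w, ⟨w.2, Module.End.mem_eigenspace_iff.mpr ?_⟩, fun h => hw0 (Subtype.ext h)⟩
        exact congrArg Subtype.val (Module.End.mem_eigenspace_iff.mp hw)
      · intro a ha u hu
        refine ⟨hU a ha u hu.1, Module.End.mem_eigenspace_iff.mpr ?_⟩
        rw [← Module.End.mul_apply, ← Units.val_mul, hA z hz a ha, Units.val_mul,
          Module.End.mul_apply, Module.End.mem_eigenspace_iff.mp hu.2, map_smul]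
    exact ⟨c, fun w hw => Module.End.mem_eigenspace_iff.mp (h1.ge hw).2⟩
  choose! l hl using key
  exact ⟨l, fun h => hU0 (eq_bot_iff.mpr (h ▸ fun w hw z hz => hl z hz w hw))⟩

theorem stmt [IsAlgClosed K] {p q : ℕ} [hp : Fact p.Prime] [CharP K p] (hq : q.Prime)
    (hpq : p ≠ q) (m : ℕ) : Stmt.{u, v} K p q m := by
  classical
  induction m with
  | zero => intro W _ _ _ Q _ X n r h; omega
  | succ m ih =>
  intro W _ _ _ Q _ X n r hm hQ hX hn hnc hr
  by_contra hcon
  have hlt : r < p ^ (n + 1) := by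
    by_contra h
    exact hcon (Or.inl (not_lt.mp h))
  set Y := X ^ p ^ n with hY
  have hXY : Commute X Y := Commute.self_pow _ _
  have hM : MinConf p q Q X Y := by
    refine ⟨hp.out, hq, hpq, hQ, hn, hn.pow _, hXY, by rw [hY, ← pow_mul, ← pow_succ, hX], hnc, ?_⟩
    intro R hR hXR
    by_contra h
    push Not at h
    haveI : Finite R := Finite.of_injective _ (inclusion_injective hR.le)
    have hlt : Nat.card R < Nat.card Q :=
      lt_of_le_of_ne (card_le_of_le hR.le) fun e => hR.ne (eq_of_le_of_card_ge hR.le e.ge)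
    refine hcon ((ih W R X n r (by omega) (hQ.to_le hR.le) hX hXR h hr).mono ?_)
    rintro ⟨a, ha, b, hb, hab⟩
    exact ⟨a, hR.le ha, b, hR.le hb, hab⟩
  haveI : Nontrivial W := by
    by_contra h
    haveI := not_nontrivial_iff_subsingleton.mp h
    obtain ⟨g, _, hg⟩ := hnc
    exact hg (Units.ext (Subsingleton.elim _ _))
  have hXinv : ∀ U : Submodule K W, (∀ w ∈ U, (X : End K W) w ∈ U) → X ∈ stab U := fun U h =>
    mem_stab (pow_pos hp.out.pos _) hX h
  -- `Q` acts trivially on proper submodules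
  have htriv : ∀ U : Submodule K W, (∀ g ∈ Q, ∀ w ∈ U, (g : End K W) w ∈ U) →
      (∀ w ∈ U, (X : End K W) w ∈ U) → U ≠ ⊤ → Q ≤ fixr U := by
    intro U hQU hXU hU
    have h1 := Submodule.finrank_lt hU
    have h2 : ∀ g ∈ Q, ∀ w ∈ U, ((Y * g : (End K W)ˣ) : End K W) w =
        ((g * Y : (End K W)ˣ) : End K W) w := by
      by_contra h
      push Not at h
      exact hcon (ih.restrict hp.out.pos Q X n r U (by omega) hQ hX hn hQU hXU h
        fun w _ => by rw [hr]; rfl)
    have hXs := hXinv U hXU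
    rw [← inf_eq_left]
    refine hM.eq_of inf_le_left (fun g hg => ⟨hn g hg.1, fun w hw => ?_⟩) fun g hg =>
      ⟨Q.mul_mem (Q.inv_mem hg) (hM.nY g hg), fun w hw => ?_⟩
    · rw [Units.val_mul, Units.val_mul, Module.End.mul_apply, Module.End.mul_apply,
        hg.2 _ ((inv_mem hXs w).mp hw), ← Module.End.mul_apply, Units.mul_inv]
      rfl
    · rw [Units.val_mul, Units.val_mul, Module.End.mul_apply, Module.End.mul_apply,
        h2 g hg _ ((inv_mem (pow_mem hXs _) w).mp hw), ← Module.End.mul_apply,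
        ← Module.End.mul_apply, ← Units.val_mul, ← Units.val_mul,
        show g⁻¹ * (g * Y) * (X ^ p ^ n)⁻¹ = 1 by rw [hY]; group]
      rfl
  have hirr : Irr Q X := by
    intro U hQU hXU
    by_contra h
    push Not at h
    haveI := Fintype.ofFinite Q
    have hQ0 : (Fintype.card Q : K) ≠ 0 := by
      rw [← Nat.card_eq_fintype_card]; exact card_ne_zero hq hpq hQ
    set s : End K W := ∑ g : Q, ((g : (End K W)ˣ) : End K W) with hs
    have hs1 : ∀ U : Submodule K W, Q ≤ fixr U → ∀ w ∈ U, s w = 0 → w = 0 := by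
      intro U hU w hw h0
      rw [hs, LinearMap.sum_apply, sum_congr rfl fun (g : Q) _ => hU g.2 w hw, sum_const,
        ← Nat.cast_smul_eq_nsmul K] at h0
      exact (smul_eq_zero.mp h0).resolve_left hQ0
    have hs2 : ∀ g ∈ Q, s * (g : End K W) = s := by
      intro g hg
      rw [hs, sum_mul]
      exact Fintype.sum_equiv (Equiv.mulRight (⟨g, hg⟩ : Q)) _ _ fun h => rfl
    have hs3 : s * (X : End K W) = X * s := by
      rw [hs, sum_mul, mul_sum]
      let φ : Q → Q := fun g => ⟨X * g * X⁻¹, hn _ g.2⟩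
      have hφ : Function.Bijective φ := Finite.injective_iff_bijective.mp fun g h e => by
        have := congrArg Subtype.val e
        simp only [φ, mul_left_inj, mul_right_inj] at this
        exact Subtype.ext this
      refine (Fintype.sum_bijective φ hφ _ _ fun g => ?_).symm
      simp [φ]
    have h1 := htriv (LinearMap.ker s) (fun g hg w hw => by
      rw [LinearMap.mem_ker, ← Module.End.mul_apply, hs2 g hg]; exact hw) (fun w hw => by
      rw [LinearMap.mem_ker, ← Module.End.mul_apply, hs3, Module.End.mul_apply,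
        LinearMap.mem_ker.mp hw, map_zero]) fun e => h.1 (eq_bot_iff.mpr fun w hw =>
      hs1 U (htriv U hQU hXU h.2) w hw (show w ∈ LinearMap.ker s from e ▸ Submodule.mem_top))
    obtain ⟨g, hg, hng⟩ := hnc
    have : g = 1 := Units.ext (LinearMap.ext fun w => sub_eq_zero.mp (by
      have h2 : (g : End K W) w - w ∈ LinearMap.ker s := by
        rw [LinearMap.mem_ker, map_sub, ← Module.End.mul_apply, hs2 g hg, sub_self]
      exact hs1 _ h1 _ h2 h2))
    exact hng (this ▸ Commute.one_right Y)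
  -- `Y` does not commute with `Q` on any nonzero vector
  have hmove : ∀ w : W, w ≠ 0 → ∃ g ∈ Q, ((Y * g : (End K W)ˣ) : End K W) w ≠
      ((g * Y : (End K W)ˣ) : End K W) w := by
    intro w hw
    by_contra h
    push Not at h
    let U : Submodule K W := ⨅ g ∈ Q, LinearMap.eqLocus ((Y * g : (End K W)ˣ) : End K W)
      ((g * Y : (End K W)ˣ) : End K W)
    have hU : ∀ w, w ∈ U ↔ ∀ g ∈ Q, ((Y * g : (End K W)ˣ) : End K W) w =
        ((g * Y : (End K W)ˣ) : End K W) w := fun w => by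
      simp only [U, Submodule.mem_iInf, LinearMap.mem_eqLocus]
    rcases hirr U (fun a ha u hu => (hU _).mpr fun g hg => by
        have h1 := (hU u).mp hu _ (mul_mem hg ha)
        have h2 := (hU u).mp hu _ ha
        simp only [Units.val_mul, Module.End.mul_apply] at h1 h2 ⊢
        rw [h1, h2])
      (fun u hu => (hU _).mpr fun g hg => by
        have h1 := (hU u).mp hu _ (hn.inv g hg)
        have e1 : Y * g * X = X * (Y * (X⁻¹ * g * X⁻¹⁻¹)) := by
          rw [← mul_assoc X, hXY.eq]; group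
        have e2 : g * Y * X = X * (X⁻¹ * g * X⁻¹⁻¹ * Y) := by
          rw [mul_assoc g, ← hXY.eq]; group
        rw [← Module.End.mul_apply, ← Module.End.mul_apply, ← Units.val_mul, ← Units.val_mul, e1,
          e2, Units.val_mul, Units.val_mul X, Module.End.mul_apply, Module.End.mul_apply, h1])
      with h0 | h0
    · exact hw (by simpa [h0] using (hU w).mpr h)
    · obtain ⟨g, hg, hng⟩ := hnc
      exact hng (Units.ext (LinearMap.ext fun w => (hU w).mp (h0 ▸ Submodule.mem_top) g hg))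
  set A := Q ⊓ centralizer (Q : Set (End K W)ˣ) with hA
  have hAX : Nrm X⁻¹ A := fun z hz => ⟨hn.inv z hz.1, fun g hg => by
    have := hz.2 _ (hn g hg)
    calc g * (X⁻¹ * z * X⁻¹⁻¹) = X⁻¹ * (X * g * X⁻¹ * z) * X := by group
      _ = _ := by rw [this]; group⟩
  obtain ⟨l, hl⟩ := exists_wt A fun a ha b hb => hb.2 a ha.1
  set U := wt A l with hU
  have hQU : ∀ g ∈ Q, ∀ w ∈ U, (g : End K W) w ∈ U := fun g hg w hw z hz => by
    rw [← Module.End.mul_apply, ← Units.val_mul, ← hz.2 g hg, Units.val_mul, Module.End.mul_apply,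
      hw z hz, map_smul]
  have hex : ∃ k, X ^ p ^ k ∈ stab U := ⟨n + 1, hX ▸ one_mem _⟩
  set k := Nat.find hex with hk
  have hk1 : X ^ p ^ k ∈ stab U := Nat.find_spec hex
  have hkn : k ≤ n + 1 := Nat.find_min' hex (hX ▸ one_mem _)
  have hXk : ∀ w ∈ U, ((X ^ p ^ k : (End K W)ˣ) : End K W) w ∈ U := fun w hw => (hk1 w).mp hw
  have hind : ∀ w ∈ U, (((X : End K W) - 1) ^ (p ^ k - 1)) w = 0 → w = 0 := by
    intro w hw h0
    rw [← geom_sum_char K p, LinearMap.sum_apply,
      range_eq_Ico, sum_eq_sum_Ico_succ_bot (pow_pos hp.out.pos k)] at h0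
    have hw' : ∀ i, ∀ w ∈ U, ((X : End K W) ^ i) w ∈ wt A fun z => l (X⁻¹ ^ i * z * (X⁻¹ ^ i)⁻¹) := by
      intro i w hw z hz
      have := hw _ (hAX.pow i z hz)
      rw [← map_smul, ← this, ← Units.val_pow_eq_pow_val, ← Module.End.mul_apply,
        ← Module.End.mul_apply, ← Units.val_mul, ← Units.val_mul]
      congr 2
      group
    refine wt_indep _ (fun i z => l (X⁻¹ ^ i * z * (X⁻¹ ^ i)⁻¹)) ?_ w hw _
      (fun i _ => hw' i w hw) h0
    intro i hi
    obtain ⟨hi1, hi2⟩ := mem_Ico.mp hi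
    by_contra h
    push Not at h
    have h1 : X ^ i ∈ stab U := mem_stab (pow_pos hp.out.pos (n + 1))
      (by rw [← pow_mul, mul_comm, pow_mul, hX, one_pow]) fun w hw z hz => by
        rw [← h z hz, Units.val_pow_eq_pow_val]
        exact hw' i w hw z hz
    obtain ⟨j, hj⟩ : ∃ j, k = j + 1 := ⟨k - 1, by
      have : k ≠ 0 := by intro h0; rw [h0, pow_zero] at hi2; omega
      omega⟩
    exact Nat.find_min hex (show j < k by omega)
      (pow_mem_of_lt hp.out _ (hj ▸ hk1) h1 hi1 (hj ▸ hi2))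
  have hr' : ∀ w ∈ U, ((((X ^ p ^ k : (End K W)ˣ) : End K W) - 1) ^ (r / p ^ k)) w = 0 := by
    intro w hw
    have h1 : ∀ j : ℕ, ((((X ^ p ^ k : (End K W)ˣ) : End K W) - 1) ^ j) w ∈ U := by
      intro j
      induction j with
      | zero => exact hw
      | succ j ih => rw [pow_succ']; exact sub_mem (hXk _ ih) ih
    refine hind _ (h1 _) ?_
    rw [Units.val_pow_eq_pow_val, ← sub_one_pow_char K p, ← pow_mul, ← Module.End.mul_apply,
      ← pow_add, pow_eq_zero_of_le _ hr]
    · rfl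
    · have := Nat.div_add_mod r (p ^ k)
      have := Nat.mod_lt r (pow_pos hp.out.pos k)
      omega
  obtain ⟨w, hw, hw0⟩ := (Submodule.ne_bot_iff U).mp hl
  rcases Nat.eq_zero_or_pos k with hk0 | hk0
  · have hUtop : U = ⊤ := (hirr U hQU (by simpa [hk0] using hXk)).resolve_left hl
    have hsc : ∀ g ∈ Q, Commute Y g → g ∈ scal K W := fun g hg hc =>
      mem_scal_of (c := l g) (LinearMap.ext fun w =>
        (show w ∈ U from hUtop ▸ Submodule.mem_top) g ⟨hg, fun a ha => (hM.central hg hc a ha).symm⟩)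
    obtain ⟨g, hg, hng⟩ := hnc
    obtain ⟨⟨j, hj⟩, h2, h3⟩ := final hq hpq hQ hX hn hirr
      (fun e => hng (by rw [hY, e, one_pow]; exact Commute.one_left g)) hsc
      (fun a ha b hb => hsc _ (mul_mem (mul_mem (mul_mem hb ha) (inv_mem hb)) (inv_mem ha))
        (hM.comm_central hb ha)) hr hlt
    refine hcon (Or.inr ⟨?_, n + 1, j, by omega, le_rfl, ?_, hj, by simpa using h2⟩)
    · by_contra h
      apply hng
      have : g ∈ scal K W := mem_scal_of (c := l g) (LinearMap.ext fun w =>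
        (show w ∈ U from hUtop ▸ Submodule.mem_top) g ⟨hg, fun a ha => by
          by_contra h'; exact h ⟨a, ha, g, hg, h'⟩⟩)
      exact Units.ext (scal_comm this _).symm
    · by_contra h
      have hj0 : j = 0 := by omega
      rw [hj, hj0, pow_zero] at h3
      obtain ⟨c, hc⟩ := ((g : End K W).existsUnique_eq_smul_id_of_finrank_eq_one h3).exists
      exact hng (Units.ext (scal_comm (mem_scal_of hc) _).symm)
  rcases hkn.eq_or_lt with hk2 | hk2
  · have := hr' w hw
    rw [hk2, Nat.div_eq_of_lt hlt] at this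
    exact hw0 this
  · obtain ⟨j, hj⟩ : ∃ j, n = j + k := ⟨n - k, by omega⟩
    have e : (X ^ p ^ k) ^ p ^ j = Y := by rw [← pow_mul, ← pow_add, hY, hj, add_comm]
    have h1 := Submodule.finrank_le U
    have := ih.restrict hp.out.pos Q (X ^ p ^ k) j (r / p ^ k) U (by omega) hQ
      (by rw [← pow_mul, ← pow_add, ← hX, hj]; congr 2; omega) (hn.pow _) hQU hXk
      (by rw [e]; obtain ⟨g, hg, h⟩ := hmove w hw0; exact ⟨g, hg, w, hw, h⟩) hr'
    refine hcon ?_
    rw [hj, show j + k + 1 = j + 1 + k by omega]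
    exact this.lift

end Cfsg.Agent.H5.HH
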